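import Mathlib

/-! Two primes between `n / 2` and `n` for `n ≥ 11`. -/

set_option autoImplicit false
set_option maxRecDepth 100000

namespace Cfsg.Agent.Lib.Recog

open Nat

theorem sq_lt_two_pow (L : ℕ) (h : 15 ≤ L) : 16 * (L * L) < 2 ^ (L - 1) := by
  induction L, h using Nat.le_induction with
  | base => norm_num
  | succ L hL ih =>
    rw [show L + 1 - 1 = (L - 1) + 1 by omega, pow_succ]
    have : 15 * L ≤ L * L := Nat.mul_le_mul_right L hL
    nlinarith

theorem main_inequality {n : ℕ} (h : 2048 ≤ n) :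
    n * ((2 * n) * (2 * n) ^ sqrt (2 * n)) * 4 ^ (2 * n / 3) ≤ 4 ^ n := by
  set s := sqrt (2 * n)
  set L := Nat.log 2 (2 * n) + 1
  have hs1 : s * s ≤ 2 * n := Nat.sqrt_le (2 * n)
  have hs2 : 2 * n < (s + 1) * (s + 1) := Nat.lt_succ_sqrt (2 * n)
  have hs64 : 64 ≤ s := Nat.le_sqrt.2 (by omega)
  have hL1 : 2 * n < 2 ^ L := Nat.lt_pow_succ_log_self one_lt_two _
  have hL2 : 2 ^ (L - 1) ≤ 2 * n := by
    simp only [L, Nat.add_sub_cancel]
    exact Nat.pow_log_le_self 2 (by omega)
  have h4L : 4 * L ≤ s := by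
    by_contra hlt
    rcases Nat.lt_or_ge L 15 with hL | hL
    · omega
    · have h1 := sq_lt_two_pow L hL
      have h2 : (s + 1) * (s + 1) ≤ (4 * L) * (4 * L) := Nat.mul_le_mul (by omega) (by omega)
      nlinarith
  have hexp : L * (s + 2) ≤ 2 * (n - 2 * n / 3) := by
    have h1 : 4 * L * (s + 2) ≤ s * (s + 2) := Nat.mul_le_mul_right _ h4L
    have h2 : 64 * s ≤ s * s := Nat.mul_le_mul_right s hs64
    have h3 : 4 * (L * (s + 2)) ≤ s * s + 2 * s := by nlinarith
    omega
  calc n * ((2 * n) * (2 * n) ^ s) * 4 ^ (2 * n / 3)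
      ≤ (2 * n) ^ (s + 2) * 4 ^ (2 * n / 3) := by
        refine Nat.mul_le_mul_right _ ?_
        rw [pow_add]
        nlinarith [Nat.one_le_pow s (2 * n) (by omega)]
    _ ≤ (2 ^ L) ^ (s + 2) * 4 ^ (2 * n / 3) := by gcongr
    _ ≤ 4 ^ (n - 2 * n / 3) * 4 ^ (2 * n / 3) := by
        refine Nat.mul_le_mul_right _ ?_
        rw [← pow_mul, show (4 : ℕ) = 2 ^ 2 by norm_num, ← pow_mul]
        exact Nat.pow_le_pow_right (by norm_num) hexp
    _ = 4 ^ n := by rw [← pow_add]; congr 1; omega

theorem centralBinom_le_of_one_prime (n q : ℕ) (h : 2 < n) (hq : q.Prime) (hq1 : n < q) (hq2 : q ≤ 2 * n)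
    (huniq : ∀ p : ℕ, p.Prime → n < p → p ≤ 2 * n → p = q) :
    centralBinom n ≤ (2 * n) * (2 * n) ^ sqrt (2 * n) * 4 ^ (2 * n / 3) := by
  let f x := x ^ n.centralBinom.factorization x
  have hnot : q ∉ Finset.range (2 * n / 3 + 1) := by rw [Finset.mem_range]; omega
  have hprod : centralBinom n = f q * ∏ p ∈ Finset.range (2 * n / 3 + 1), f p := by
    rw [← Finset.prod_insert hnot]
    refine (Eq.trans ?_ n.prod_pow_factorization_centralBinom).symm
    apply Finset.prod_subset
    · intro x hx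
      rcases Finset.mem_insert.1 hx with rfl | hx
      · rw [Finset.mem_range]; omega
      · rw [Finset.mem_range] at hx ⊢; omega
    · intro x hx hx2
      rw [Finset.mem_insert, not_or, Finset.mem_range] at hx2
      rw [Finset.mem_range] at hx
      show x ^ _ = 1
      by_cases hp : x.Prime
      · have hxn : x ≤ n := by
          by_contra hlt
          exact hx2.1 (huniq x hp (by omega) (by omega))
        rw [factorization_centralBinom_of_two_mul_self_lt_three_mul h hxn (by omega), Nat.pow_zero]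
      · rw [factorization_eq_zero_of_not_prime _ hp, Nat.pow_zero]
  have n2_pos : 1 ≤ 2 * n := by omega
  rw [hprod, mul_assoc]
  refine Nat.mul_le_mul (Nat.pow_factorization_choose_le (by omega)) ?_
  let S := (Finset.range (2 * n / 3 + 1)).filter Nat.Prime
  have : ∏ x ∈ S, f x = ∏ x ∈ Finset.range (2 * n / 3 + 1), f x := by
    refine Finset.prod_filter_of_ne fun p _ h => ?_
    contrapose h; dsimp only [f]
    rw [factorization_eq_zero_of_not_prime n.centralBinom h, _root_.pow_zero]
  rw [← this, ← Finset.prod_filter_mul_prod_filter_not S (· ≤ sqrt (2 * n))]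
  apply mul_le_mul'
  · refine (Finset.prod_le_prod' fun p _ => (?_ : f p ≤ 2 * n)).trans ?_
    · exact Nat.pow_factorization_choose_le (by omega)
    have : (Finset.Icc 1 (sqrt (2 * n))).card = sqrt (2 * n) := by rw [Nat.card_Icc, Nat.add_sub_cancel]
    rw [Finset.prod_const]
    refine pow_right_mono₀ n2_pos ((Finset.card_le_card fun x hx => ?_).trans this.le)
    obtain ⟨h1, h2⟩ := Finset.mem_filter.1 hx
    exact Finset.mem_Icc.mpr ⟨(Finset.mem_filter.1 h1).2.one_lt.le, h2⟩
  · refine le_trans ?_ (primorial_le_four_pow (2 * n / 3))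
    refine (Finset.prod_le_prod' fun p hp => (?_ : f p ≤ p)).trans ?_
    · obtain ⟨h1, h2⟩ := Finset.mem_filter.1 hp
      refine (pow_right_mono₀ (Finset.mem_filter.1 h1).2.one_lt.le ?_).trans (pow_one p).le
      exact Nat.factorization_choose_le_one (Nat.sqrt_lt'.mp <| not_le.1 h2)
    refine Finset.prod_le_prod_of_subset_of_one_le' (Finset.filter_subset _ _) ?_
    exact fun p hp _ => (Finset.mem_filter.1 hp).2.one_lt.le

theorem two_primes_step {m a b : ℕ} (ha : a.Prime) (hb : b.Prime) (hab : a < b) (q : ℕ) (hcov : b ≤ 2 * q)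
    (H : m < q → ∃ p r : ℕ, p.Prime ∧ r.Prime ∧ p < r ∧ m < p ∧ r ≤ 2 * m) (hm : m < a) :
    ∃ p r : ℕ, p.Prime ∧ r.Prime ∧ p < r ∧ m < p ∧ r ≤ 2 * m := by
  rcases Nat.lt_or_ge m q with h | h
  · exact H h
  · exact ⟨a, b, ha, hb, hab, hm, by omega⟩

theorem two_primes_doubled (m : ℕ) (hm : 6 ≤ m) :
    ∃ p r : ℕ, p.Prime ∧ r.Prime ∧ p < r ∧ m < p ∧ r ≤ 2 * m := by
  rcases Nat.lt_or_ge m 2048 with h | h
  · have h0 : m < 2083 := by omega
    refine two_primes_step (a := 2083) (b := 2087) (by norm_num) (by norm_num) (by norm_num) 1049 (by norm_num) (fun h0 => ?_) h0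
    refine two_primes_step (a := 1049) (b := 1051) (by norm_num) (by norm_num) (by norm_num) 541 (by norm_num) (fun h0 => ?_) h0
    refine two_primes_step (a := 541) (b := 547) (by norm_num) (by norm_num) (by norm_num) 277 (by norm_num) (fun h0 => ?_) h0
    refine two_primes_step (a := 277) (b := 281) (by norm_num) (by norm_num) (by norm_num) 149 (by norm_num) (fun h0 => ?_) h0
    refine two_primes_step (a := 149) (b := 151) (by norm_num) (by norm_num) (by norm_num) 79 (by norm_num) (fun h0 => ?_) h0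
    refine two_primes_step (a := 79) (b := 83) (by norm_num) (by norm_num) (by norm_num) 43 (by norm_num) (fun h0 => ?_) h0
    refine two_primes_step (a := 43) (b := 47) (by norm_num) (by norm_num) (by norm_num) 29 (by norm_num) (fun h0 => ?_) h0
    refine two_primes_step (a := 29) (b := 31) (by norm_num) (by norm_num) (by norm_num) 17 (by norm_num) (fun h0 => ?_) h0
    refine two_primes_step (a := 17) (b := 19) (by norm_num) (by norm_num) (by norm_num) 11 (by norm_num) (fun h0 => ?_) h0
    refine two_primes_step (a := 11) (b := 13) (by norm_num) (by norm_num) (by norm_num) 7 (by norm_num) (fun h0 => ?_) h0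
    exact ⟨7, 11, by norm_num, by norm_num, by norm_num, h0, by omega⟩
  · obtain ⟨q, hq, hq1, hq2⟩ := Nat.exists_prime_lt_and_le_two_mul m (by omega)
    by_contra! hcon
    have huniq : ∀ p : ℕ, p.Prime → m < p → p ≤ 2 * m → p = q := by
      intro p hp hp1 hp2
      rcases lt_trichotomy p q with hpq | hpq | hpq
      · exact absurd hq2 (not_le.2 (hcon p q hp hq hpq hp1))
      · exact hpq
      · exact absurd hp2 (not_le.2 (hcon q p hq hp hpq hq1))
    have h1 := Nat.four_pow_lt_mul_centralBinom m (by omega)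
    have h2 := centralBinom_le_of_one_prime m q (by omega) hq hq1 hq2 huniq
    have h3 := main_inequality h
    rw [mul_assoc m] at h3
    exact absurd (h1.trans_le ((Nat.mul_le_mul_left m h2).trans h3)) (lt_irrefl _)

/-- Two primes `p < r` with `n / 2 < p` and `r ≤ n`, for `n ≥ 11`. -/
theorem exists_two_primes (n : ℕ) (hn : 11 ≤ n) :
    ∃ p r : ℕ, p.Prime ∧ r.Prime ∧ p < r ∧ n < 2 * p ∧ r ≤ n := by
  rcases eq_or_ne n 11 with rfl | hne
  · exact ⟨7, 11, by norm_num, by norm_num, by norm_num, by norm_num, le_rfl⟩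
  · obtain ⟨p, r, hp, hr, hpr, h1, h2⟩ := two_primes_doubled (n / 2) (by omega)
    exact ⟨p, r, hp, hr, hpr, by omega, by omega⟩

end Cfsg.Agent.Lib.Recog
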